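import Cfsg.Agent.J2.Cent

/-!
# Transport of the centraliser structure to `J₂`
-/

set_option autoImplicit false

namespace CfsgLib.J2

theorem j2Equiv_refl (i : Fin 315) (h : refl i ∈ Cfsg.Spor.twoJ2) :
    j2Equiv (QuotientGroup.mk ⟨refl i, h⟩ : Cfsg.Spor.J2) = reflP i := by
  apply Subtype.ext
  rfl

theorem structure_of_equiv {X : Type} [Group X] (e : X ≃* G315) {x : X} {i : Fin 315} (hxy : e x = reflP i) :
    ∃ (P : Subgroup (Subgroup.centralizer ({x} : Set X))) (_ : P.Normal), Nat.card P = 32 ∧
      Cfsg.IsExtraspecial 2 P ∧ Nonempty (Subgroup.centralizer ({x} : Set X) ⧸ P ≃* alternatingGroup (Fin 5)) := by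
  obtain ⟨e0⟩ := exists_centralizer_equiv i
  haveI : Finite X := Finite.of_equiv G315 e.symm.toEquiv
  let d : Subgroup.centralizer ({x} : Set X) ≃* Subgroup.centralizer ({reflP i} : Set G315) :=
    { toFun := fun c => ⟨e c, by
        rw [Subgroup.mem_centralizer_singleton_iff, ← hxy, ← map_mul, ← map_mul,
          Subgroup.mem_centralizer_singleton_iff.1 c.2]⟩
      invFun := fun c => ⟨e.symm c, by
        rw [Subgroup.mem_centralizer_singleton_iff]
        refine e.injective ?_
        rw [map_mul, map_mul, e.apply_symm_apply, hxy]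
        exact Subgroup.mem_centralizer_singleton_iff.1 c.2⟩
      left_inv := fun c => Subtype.ext (e.symm_apply_apply _)
      right_inv := fun c => Subtype.ext (e.apply_symm_apply _)
      map_mul' := fun a b => Subtype.ext (map_mul e _ _) }
  exact structure_of_stab0 (d.trans e0)

end CfsgLib.J2
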