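/-
The multiplier of the Hall–Janko group: the double cover as a stem extension and the bound two.
-/
import Cfsg.Agent.J2.MultData
import Cfsg.Agent.J2.SpecChecks
import Cfsg.Agent.Schur.Basic

set_option autoImplicit false
set_option maxRecDepth 100000

namespace CfsgLib.J2.Mult

open Cfsg Cfsg.Spor Quaternion CfsgLib.Schur CfsgLib.SchurCert
open CfsgLib.M23Coh (wordE)

universe v

open Classical in
/-- The group element of a code. -/
noncomputable def elM (c : ℕ) : G315 :=
  if h : ∃ g ∈ G315, RelL g (E c) then ⟨h.choose, h.choose_spec.1⟩ else 1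

theorem elM_rel {c : ℕ} (hc : valid c = true) : RelL (elM c : P315) (E c) := by
  have hex : ∃ g ∈ G315, RelL g (E c) := by
    obtain ⟨g, hg, hr⟩ := tail_mem chain chain_ok gensIn_top c hc
    exact ⟨g, levGrp_top ▸ hg, hr⟩
  rw [elM, dif_pos hex]
  exact hex.choose_spec.2

theorem appendM {g h : G315} {ts us : List ℕ} (hg : RelL (g : P315) ts) (hh : RelL (h : P315) us) :
    RelL ((g * h : G315) : P315) (ts ++ us) := by
  have key : ∀ (ts us : List ℕ) (i : ℕ), apL (ts ++ us) i = apL ts (apL us i) := by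
    intro ts us i
    induction ts with
    | nil => rfl
    | cons t ts ih =>
      show ap t (apL (ts ++ us) i) = ap t (apL ts (apL us i))
      rw [ih]
  intro i
  rw [Subgroup.coe_mul, Equiv.Perm.mul_apply, hg, hh, key]

theorem geqM {g h : G315} {a b : List ℕ} (ha : RelL (g : P315) a) (hb : RelL (h : P315) b)
    (h' : eqB a b = true) : g = h := Subtype.ext (eq_of_eqB g.2 h.2 ha hb h')

theorem eqBM {g : G315} {a b : List ℕ} (ha : RelL (g : P315) a) (hb : RelL (g : P315) b) :
    eqB a b = true := by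
  refine List.all_eq_true.2 fun x hx => ?_
  have h1 := ha ⟨x, base_lt x hx⟩
  rw [hb] at h1
  simp only [← h1]
  exact Nat.beq_refl _

/-- Elements of the generator codes. -/
noncomputable def gel (gs : List ℕ) (i : ℕ) : G315 := elM (gs.getD i 0)

/-- Tables of a word. -/
def wT (gs : List ℕ) (w : List ℕ) : List ℕ := w.flatMap fun i => E (gs.getD i 0)

/-- A key from the base images. -/
def bkey (ts : List ℕ) : ℕ := base.foldl (fun a x => a * 315 + apL ts x) 0

/-- The model checks of a certificate. -/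
def modelOk (gs : List ℕ) (c : GCert) : Bool :=
  gs.all valid && valid 0 && (c.rels.all fun r => eqB (wT gs r.1) (wT gs r.2)) &&
    increasing (c.nf.map fun w => bkey (wT gs w))

theorem wT_rel {gs : List ℕ} (hv : gs.all valid = true) (h0 : valid 0 = true) (w : List ℕ) :
    RelL ((wordE (gel gs) w : G315) : P315) (wT gs w) := by
  induction w with
  | nil => exact RelL.nil
  | cons a r ih =>
    refine appendM (g := gel gs a) ?_ ih
    refine elM_rel ?_
    by_cases ha : a < gs.length
    · rw [List.getD_eq_getElem _ _ ha]; exact List.all_eq_true.1 hv _ (List.getElem_mem _)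
    · rwa [List.getD_eq_default _ _ (not_lt.1 ha)]

theorem bkey_congr {g : G315} {a b : List ℕ} (ha : RelL (g : P315) a) (hb : RelL (g : P315) b) :
    bkey a = bkey b := by
  have h : ∀ x ∈ base, apL a x = apL b x := fun x hx =>
    Nat.eq_of_beq_eq_true (List.all_eq_true.1 (eqBM ha hb) x hx)
  unfold bkey
  simp only [base, List.foldl_cons, List.foldl_nil]
  simp only [base, List.mem_cons, List.not_mem_nil, or_false, forall_eq_or_imp, forall_eq] at h
  obtain ⟨h1, h2, h3, h4, h5, h6, h7⟩ := h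
  rw [h1, h2, h3, h4, h5, h6, h7]

theorem ok_of {gs : List ℕ} {c : GCert} (hp : c.p.Prime) (hm : modelOk gs c = true)
    (h : (c.checkEqs && c.checkSol && c.checkShape && c.checkNF) = true)
    (hs : ¬ c.p ∣ 604800 / c.p ^ c.n) : c.Ok (gel gs) := by
  simp only [modelOk, Bool.and_eq_true] at hm
  simp only [Bool.and_eq_true] at h
  obtain ⟨⟨⟨hv, h0⟩, hr⟩, hk⟩ := hm
  refine ⟨hp, fun r hr' => ?_, h.1.1.1, h.1.1.2, h.1.2, h.2, ?_, by rwa [card_G315]⟩
  · exact geqM (wT_rel hv h0 _) (wT_rel hv h0 _) (List.all_eq_true.1 hr r hr')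
  · have hnd := increasing_nodup _ hk
    refine (List.nodup_map_iff_inj_on (List.Nodup.of_map _ hnd)).2 fun u hu w hw huw => ?_
    refine List.inj_on_of_nodup_map hnd hu hw ?_
    exact bkey_congr (wT_rel hv h0 u) (huw ▸ wT_rel hv h0 w)

theorem model2 : modelOk p2Gens cert2 = true := by decide +kernel
theorem model3 : modelOk p3Gens cert3 = true := by decide +kernel
theorem model5 : modelOk p5Gens cert5 = true := by decide +kernel

theorem checks2 : (cert2.checkEqs && cert2.checkSol && cert2.checkShape && cert2.checkNF &&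
    cert2.checkFour p2Four) = true := by decide +kernel

theorem checks3 : (cert3.checkEqs && cert3.checkSol && cert3.checkShape && cert3.checkNF &&
    cert3.phiZero) = true := by decide +kernel

theorem checks5 : (cert5.checkEqs && cert5.checkSol && cert5.checkShape && cert5.checkNF &&
    cert5.phiZero) = true := by decide +kernel

theorem ok2 : cert2.Ok (gel p2Gens) :=
  ok_of Nat.prime_two model2 (Bool.and_eq_true_iff.1 checks2).1 (by decide)

theorem ok3 : cert3.Ok (gel p3Gens) :=
  ok_of Nat.prime_three model3 (Bool.and_eq_true_iff.1 checks3).1 (by decide)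

theorem ok5 : cert5.Ok (gel p5Gens) :=
  ok_of Nat.prime_five model5 (Bool.and_eq_true_iff.1 checks5).1 (by decide)

/-- An odd prime does not divide the kernel of a stem extension. -/
theorem odd_not_dvd {Γ : Type v} [Group Γ] [Finite Γ] {σ : Γ →* G315} (hσ : Cfsg.IsStemExtension σ)
    (q : ℕ) (hq : q.Prime) (hd : q ∣ Nat.card σ.ker) : q = 2 := by
  by_contra h2
  refine not_dvd_card_ker hσ hq (fun Δ _ _ τ e hcov hst => ?_) hd
  haveI := Fact.mk hq
  by_cases h3 : q = 3
  · subst h3; exact ok3.no_cover (Bool.and_eq_true_iff.1 checks3).2 hcov hst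
  by_cases h5 : q = 5
  · subst h5; exact ok5.no_cover (Bool.and_eq_true_iff.1 checks5).2 hcov hst
  refine no_cover_of_cyclic (p := q) ?_ hcov hst
  rw [card_G315]
  intro hdvd
  have hlt : q ≤ 777 := by
    by_contra hgt
    have : 778 ^ 2 ≤ q ^ 2 := Nat.pow_le_pow_left (by omega) 2
    have := Nat.le_of_dvd (by norm_num) hdvd
    omega
  have hall : ∀ r ≤ 777, Nat.Prime r → r ^ 2 ∣ 604800 → r = 2 ∨ r = 3 ∨ r = 5 := by
    intro r hr hrp hrd
    have hr1 : r ∣ 604800 := (dvd_pow_self r two_ne_zero).trans hrd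
    have : r ∈ Nat.primeFactorsList 604800 := by
      rw [Nat.mem_primeFactorsList (by norm_num)]; exact ⟨hrp, hr1⟩
    have hl : ∀ r ∈ ([2, 3, 5, 7] : List ℕ), r ^ 2 ∣ 604800 → r = 2 ∨ r = 3 ∨ r = 5 := by decide +kernel
    refine hl r ?_ hrd
    have h8 : r ∣ 2 ^ 7 * 3 ^ 3 * 5 ^ 2 * 7 := by norm_num; exact hr1
    rcases (Nat.Prime.dvd_mul hrp).1 h8 with h | h
    · rcases (Nat.Prime.dvd_mul hrp).1 h with h | h
      · rcases (Nat.Prime.dvd_mul hrp).1 h with h | h
        · simp [(Nat.prime_dvd_prime_iff_eq hrp Nat.prime_two).1 (hrp.dvd_of_dvd_pow h)]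
        · simp [(Nat.prime_dvd_prime_iff_eq hrp Nat.prime_three).1 (hrp.dvd_of_dvd_pow h)]
      · simp [(Nat.prime_dvd_prime_iff_eq hrp Nat.prime_five).1 (hrp.dvd_of_dvd_pow h)]
    · simp [(Nat.prime_dvd_prime_iff_eq hrp (by norm_num : Nat.Prime 7)).1 h]
  rcases hall q hlt hq hdvd with rfl | rfl | rfl <;> omega

/-- The kernel of a stem extension is an image of the group of order two. -/
theorem stem_bound {Γ : Type v} [Group Γ] [Finite Γ] (σ : Γ →* G315) (hσ : Cfsg.IsStemExtension σ) :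
    ∃ π : Multiplicative (ZMod 2) →* σ.ker, Function.Surjective π := by
  obtain ⟨z, -, hz, hgen⟩ :=
    ok2.card_ker_dvd_two rfl (Bool.and_eq_true_iff.1 checks2).2 hσ (odd_not_dvd hσ)
  exact exists_surj_zmod hz σ.ker hgen

/-! ### The double cover -/

/-- Follow line `0` along a word, keeping the unit. -/
def trk : List ℕ → Q8 × ℕ
  | [] => (Q8.one, 0)
  | k :: r => ((trk r).1.mul (unit (genU k (trk r).2)), genT k (trk r).2)

/-- A word in the four reflections. -/
noncomputable def genW : List ℕ → twoJ2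
  | [] => 1
  | k :: r => genJ ⟨k % 4, Nat.mod_lt _ (by norm_num)⟩ * genW r

theorem trk_spec : ∀ w : List ℕ, (∀ k ∈ w, k < 4) →
    (trk w).1.isI = true ∧ (trk w).2 < 315 ∧
      RelL (phi (genW w)) (w.map fun k => genTab.getD k 0) ∧
      ∃ F, IsLin (genW w : Equiv.Perm icoLeech) F ∧
        F (vec (line 0)) = val (trk w).1 • vec (line (trk w).2)
  | [], _ => by
    refine ⟨(by decide), (by show (0 : ℕ) < 315; norm_num), ?_, LinearEquiv.refl _ _, ⟨fun x => rfl, fun x y => rfl⟩, ?_⟩
    · rw [genW, map_one]; exact RelL.nil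
    · show vec (line 0) = val Q8.one • vec (line 0)
      rw [val_one, one_smul]
  | k :: r, h => by
    obtain ⟨hI, hj, hrel, F, hF, hFe⟩ := trk_spec r fun x hx => h x (List.mem_cons_of_mem _ hx)
    have hk : k < 4 := h k List.mem_cons_self
    have hkk : (⟨k % 4, Nat.mod_lt _ (by norm_num)⟩ : Fin 4) = ⟨k, hk⟩ := Fin.ext (Nat.mod_eq_of_lt hk)
    obtain ⟨H, hH, hHe, -⟩ := gen_image hk hj
    refine ⟨(mul_spec hI (unit_isI _)).1, genT_lt hk hj, ?_, F.trans H, ⟨fun x => ?_, fun x y => ?_⟩, ?_⟩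
    · rw [genW, map_mul, List.map_cons, hkk]
      exact RelL.cons (genTab_rel ⟨k, hk⟩) hrel
    · show (((genJ _ : twoJ2) : Equiv.Perm icoLeech) ((genW r : Equiv.Perm icoLeech) x) : Fin 3 → ℍ[ℝ]) = _
      rw [hkk]
      show ((refl ⟨gidx k, genI_lt hk⟩ _ : icoLeech) : Fin 3 → ℍ[ℝ]) = _
      rw [hH.1, hF.1]; rfl
    · rw [LinearEquiv.trans_apply, LinearEquiv.trans_apply, hH.2, hF.2]
    · rw [LinearEquiv.trans_apply, hFe, LinearEquiv.map_smul, hHe, smul_smul]
      show _ = val ((trk r).1.mul _) • _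
      rw [(mul_spec hI (unit_isI _)).2]
      rfl

theorem oddWord_check :
    (oddWord.all (fun k => Nat.blt k 4) && decide (trk oddWord = (Q8.one, 0)) &&
      eqB (oddWord.map fun k => genTab.getD k 0) [] && Nat.beq (oddWord.length % 2) 1) = true := by
  decide +kernel

theorem genW_eq_one (w : List ℕ)
    (h : (w.all (fun k => Nat.blt k 4) && decide (trk w = (Q8.one, 0)) &&
      eqB (w.map fun k => genTab.getD k 0) [] && Nat.beq (w.length % 2) 1) = true) :
    genW w = 1 := by
  simp only [Bool.and_eq_true, List.all_eq_true, Nat.blt_eq, decide_eq_true_eq, Nat.beq_eq] at h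
  obtain ⟨⟨⟨hlt, htr⟩, heq⟩, -⟩ := h
  obtain ⟨-, -, hrel, F, hF, hFe⟩ := trk_spec w hlt
  rw [htr, val_one, one_smul] at hFe
  have hphi : phi (genW w) = 1 :=
    eq_of_eqB ⟨_, rfl⟩ (one_mem _) hrel RelL.nil heq
  obtain ⟨c, hc, hx⟩ := center_scalar _ ((phi_eq_one_iff _).1 hphi)
  rcases hc with rfl | rfl
  · exact Subtype.ext (Equiv.ext fun x => Subtype.ext (by rw [hx, one_smul]; rfl))
  · exfalso
    have h0 : (0 : ℕ) < 315 := by norm_num
    have := hx ⟨_, vec_mem (line_ok h0).1⟩
    rw [hF.1, hFe, eq_comm, neg_one_smul, neg_eq_iff_add_eq_zero, ← two_smul ℝ, smul_eq_zero] at this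
    have hv : vec (line 0) = 0 := this.resolve_left two_ne_zero
    have h4 := line_qip h0
    rw [hv] at h4
    have h5 := congrArg QuaternionAlgebra.re h4
    rw [show (4 : ℍ[ℝ]) = ((4 : ℝ) : ℍ[ℝ]) by norm_cast] at h5
    simp [qip] at h5

theorem genW_oddWord : genW oddWord = 1 := genW_eq_one oddWord oddWord_check

theorem commutator_twoJ2 : commutator twoJ2 = ⊤ := by
  classical
  let ab : twoJ2 →* Abelianization twoJ2 := Abelianization.of
  set r0 : twoJ2 := ⟨refl ⟨0, by norm_num⟩, refl_mem _⟩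
  have hgen : ∀ i : Fin 315, ab ⟨refl i, refl_mem i⟩ = ab r0 := by
    intro i
    obtain ⟨g, hg, he⟩ := exists_conj_gen i
    have hg' : g ∈ twoJ2 := genGrp_eq ▸ hg
    have : (⟨refl i, refl_mem i⟩ : twoJ2) = ⟨g, hg'⟩ * r0 * (⟨g, hg'⟩ : twoJ2)⁻¹ := Subtype.ext he.symm
    rw [this, map_mul, map_mul, map_inv, mul_comm (ab ⟨g, hg'⟩), mul_inv_cancel_right]
  have hsq : ab r0 ^ 2 = 1 := by
    rw [← map_pow, show r0 ^ 2 = 1 from Subtype.ext ?_, map_one]
    rw [pow_two]
    refine Equiv.ext fun x => Subtype.ext ?_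
    exact qrefl_qrefl (line_qip (show (0 : ℕ) < 315 by norm_num)) _
  have hw : ∀ w : List ℕ, ab (genW w) = ab r0 ^ w.length := by
    intro w
    induction w with
    | nil => exact map_one _
    | cons k r ih =>
      rw [genW, map_mul, ih, List.length_cons, pow_succ']
      exact congrArg (· * _) (hgen _)
  have hodd : oddWord.length % 2 = 1 := by decide +kernel
  have hr0 : ab r0 = 1 := by
    have key : ∀ w : List ℕ, genW w = 1 → w.length % 2 = 1 → ab r0 = 1 := by
      intro w h1 h2
      have h := hw w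
      rw [h1, map_one] at h
      rw [← Nat.mod_add_div w.length 2, h2, pow_add, pow_one, pow_mul, hsq, one_pow, mul_one] at h
      exact h.symm
    exact key oddWord genW_oddWord hodd
  rw [eq_top_iff]
  intro x _
  rw [← Abelianization.ker_of, MonoidHom.mem_ker]
  have : twoJ2 ≤ (ab.ker).map twoJ2.subtype := by
    refine (Subgroup.closure_le _).2 fun f hf => ?_
    obtain ⟨i, rfl⟩ := (isIco_iff f).1 hf
    exact ⟨⟨refl i, refl_mem i⟩, (hgen i).trans hr0, rfl⟩
  obtain ⟨y, hy, e⟩ := this x.2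
  rw [← Subtype.coe_injective e]
  exact hy

theorem finite_twoJ2 : Finite twoJ2 := by
  refine Nat.finite_of_card_ne_zero ?_
  rw [Subgroup.card_eq_card_quotient_mul_card_subgroup (Subgroup.center twoJ2), card_center]
  show Nat.card J2 * 2 ≠ 0
  rw [card_J2]
  norm_num

theorem multiplier_J2 : Cfsg.HasCyclicSchurMultiplier Cfsg.Spor.J2 2 := by
  haveI := finite_twoJ2
  constructor
  · refine ⟨twoJ2, inferInstance, inferInstance, QuotientGroup.mk' _,
      ⟨QuotientGroup.mk'_surjective _, ?_, ?_⟩, ⟨mulEquivOfPrimeCardEq (p := 2) ?_ (by simp)⟩⟩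
    · rw [QuotientGroup.ker_mk']
    · rw [QuotientGroup.ker_mk', commutator_twoJ2]; exact le_top
    · rw [QuotientGroup.ker_mk']; exact card_center
  · intro Γ _ _ σ hσ
    obtain ⟨hs, hc, hst⟩ := hσ
    let τ : Γ →* G315 := j2Equiv.toMonoidHom.comp σ
    have hker : τ.ker = σ.ker := by
      ext y
      simp [τ, MonoidHom.mem_ker]
    obtain ⟨π, hπ⟩ := stem_bound τ ⟨j2Equiv.surjective.comp hs, hker ▸ hc, hker ▸ hst⟩
    exact ⟨(MulEquiv.subgroupCongr hker).toMonoidHom.comp π, (MulEquiv.surjective (MulEquiv.subgroupCongr hker)).comp hπ⟩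

end CfsgLib.J2.Mult
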