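import Cfsg.Agent.J2.Reflect

/-!
# The listed units are distinct
-/

set_option autoImplicit false
set_option maxRecDepth 100000

namespace CfsgLib.J2

theorem unit_codes_distinct : strictlyDistinct ((List.range 120).map fun k => enc (unit k)) = true := by
  decide +kernel

theorem strictlyDistinct_nodup : ∀ (l : List ℕ), strictlyDistinct l = true → l.Nodup := by
  intro l
  induction l with
  | nil => simp
  | cons c l ih =>
    intro h
    simp only [strictlyDistinct, Bool.and_eq_true, List.all_eq_true] at h
    refine List.nodup_cons.2 ⟨fun hc => ?_, ih h.2⟩
    have := h.1 c hc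
    simp at this

theorem unit_inj (a b : Fin 120) (h : unit a = unit b) : a = b := by
  have hn := strictlyDistinct_nodup _ unit_codes_distinct
  exact Fin.ext (List.inj_on_of_nodup_map hn (List.mem_range.2 a.2) (List.mem_range.2 b.2) (congrArg enc h))

end CfsgLib.J2
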